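import Cfsg.Agent.H808.R2.NineA

/-!
# S3509, R2: the torus with `1 ± θ³ + θ⁶ = 0`, its order (helper808)
-/

set_option autoImplicit false
set_option linter.unusedSectionVars false
open Cfsg

namespace Cfsg.Agent.H808.R2

open CoxeterSystem Cfsg Cfsg.Lie Cfsg.Lie.ChevalleyDatum
open Cfsg.Agent.ChevalleyStructure Cfsg.Agent.ChevalleyStructure.Elts Cfsg.Agent.ChevalleyStructure.CoxeterGeom
  Cfsg.Agent.ChevalleyStructure.CoxeterGeomTypes Cfsg.Agent.ChevalleyStructure.NPerm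
open Cfsg.Agent.Tits.Roots Cfsg.Agent.Tits.Core Cfsg.Agent.Nodes Cfsg.Agent.Nodes.Reps Cfsg.Agent.Nodes.BNOf
  Cfsg.Agent.Nodes.RGDChev
open Cfsg.Agent.KFacts.RgdField Cfsg.Agent.KFacts.RgdChevCoord
open Cfsg.Agent.BpExc Cfsg.Agent.BpExc.TorCent Cfsg.Agent.BpExc.TorChev Cfsg.Agent.BpExc.Pair Cfsg.Agent.BpExc.LangFr
open Cfsg.Agent.H469.Exc Cfsg.Agent.H316.U6 Cfsg.Agent.H169.RG Cfsg.Agent.H441.RG
open Cfsg.Agent.H129.TorusChar

variable {M : CoxeterMatrix (Fin 6)} {hp : IsType chevE6 6 M} {r q : ℕ} [hr : Fact r.Prime] {K₀ : Type} [Group K₀]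
  {m : MData hp r q K₀} {g : ↥(chevE6.group (KK r))}

/-- the values of a fixed element of the torus -/
theorem cX_theta (f : TorForm m g) {t : ↥(chevE6.group (KK r))} (ht : t ∈ TT chevE6 (KK r)) (hα : f.α t = t)
    (x : Fin 6 → ℤ) : cX hp t (f.θ x) = cX hp t x ^ q := by
  have h1 := cX_sigma hp M.toCoxeterSystem f.frob f.fr ht x
  have h2 : (MulAut.conj f.n * m.σ) t = t := hα
  rw [h2, m.hq] at h1
  exact h1

/-- the values are roots of unity -/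
theorem exists_N (f : TorForm m g) (h9 : (∀ a, a + f.θ (f.θ (f.θ a)) + f.θ (f.θ (f.θ (f.θ (f.θ (f.θ a))))) = 0) ∨
      (∀ a, a - f.θ (f.θ (f.θ a)) + f.θ (f.θ (f.θ (f.θ (f.θ (f.θ a))))) = 0)) :
    ∃ N : ℕ, 0 < N ∧ N ≤ q ^ 6 + q ^ 3 + 1 ∧ ∀ t : ↥(chevE6.group (KK r)), t ∈ TT chevE6 (KK r) → f.α t = t →
      ∀ x, cX hp t x ^ N = 1 := by
  have hq0 : 0 < q := by rw [← m.hq]; exact pow_pos hr.out.pos _
  have h3 : ∀ t : ↥(chevE6.group (KK r)), t ∈ TT chevE6 (KK r) → f.α t = t → ∀ x,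
      cX hp t (f.θ (f.θ (f.θ x))) = cX hp t x ^ q ^ 3 := by
    intro t ht hα x
    rw [cX_theta f ht hα, cX_theta f ht hα, cX_theta f ht hα, ← pow_mul, ← pow_mul]
    congr 1
    ring
  have h6 : ∀ t : ↥(chevE6.group (KK r)), t ∈ TT chevE6 (KK r) → f.α t = t → ∀ x,
      cX hp t (f.θ (f.θ (f.θ (f.θ (f.θ (f.θ x)))))) = cX hp t x ^ q ^ 6 := by
    intro t ht hα x
    rw [h3 t ht hα, h3 t ht hα, ← pow_mul]
    congr 1
    ring
  rcases h9 with h | h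
  · refine ⟨q ^ 6 + q ^ 3 + 1, by positivity, le_refl _, fun t ht hα x => ?_⟩
    have e := congrArg (cX hp t) (h x)
    rw [(isMC_cX hp ht).add, (isMC_cX hp ht).add, (isMC_cX hp ht).zero, h3 t ht hα, h6 t ht hα] at e
    rw [← e]
    ring
  · have hle : q ^ 3 ≤ q ^ 6 := Nat.pow_le_pow_right hq0 (by norm_num)
    refine ⟨q ^ 6 + 1 - q ^ 3, by omega, by omega, fun t ht hα x => ?_⟩
    have e := congrArg (cX hp t) (h x)
    rw [sub_eq_add_neg, (isMC_cX hp ht).add, (isMC_cX hp ht).add, (isMC_cX hp ht).zero, (isMC_cX hp ht).neg,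
      h3 t ht hα, h6 t ht hα] at e
    have h0 : cX hp t x ≠ 0 := (isMC_cX hp ht).ne_zero x
    have h1 : cX hp t x ^ (q ^ 6 + 1) = cX hp t x ^ q ^ 3 := by
      have h2 : cX hp t x ^ q ^ 3 ≠ 0 := pow_ne_zero _ h0
      calc cX hp t x ^ (q ^ 6 + 1) = (cX hp t x * (cX hp t x ^ q ^ 3)⁻¹ * cX hp t x ^ q ^ 6) * cX hp t x ^ q ^ 3 := by
            field_simp
            ring
        _ = _ := by rw [e, one_mul]
    have h2 : q ^ 6 + 1 = (q ^ 6 + 1 - q ^ 3) + q ^ 3 := by omega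
    rw [h2, pow_add] at h1
    exact mul_right_cancel₀ (pow_ne_zero _ h0) (h1.trans (one_mul _).symm)

/-- **The order of the torus.** -/
theorem tau_le (f : TorForm m g) (h9 : (∀ a, a + f.θ (f.θ (f.θ a)) + f.θ (f.θ (f.θ (f.θ (f.θ (f.θ a))))) = 0) ∨
      (∀ a, a - f.θ (f.θ (f.θ a)) + f.θ (f.θ (f.θ (f.θ (f.θ (f.θ a))))) = 0)) {a₀ : Fin 6 → ℤ}
    (hgen : ∀ B : AddSubgroup (Fin 6 → ℤ), (∀ x ∈ B, f.θ x ∈ B) → a₀ ∈ B → B = ⊤) :
    Finite ↥(TT chevE6 (KK r) ⊓ fixedSubgroup f.α) ∧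
      Nat.card ↥(TT chevE6 (KK r) ⊓ fixedSubgroup f.α) ≤ q ^ 6 + q ^ 3 + 1 := by
  classical
  obtain ⟨N, hN0, hN, hroot⟩ := exists_N f h9
  let R : Finset (KK r) := (Polynomial.nthRoots N (1 : KK r)).toFinset
  have hmem : ∀ t : ↥(TT chevE6 (KK r) ⊓ fixedSubgroup f.α), cX hp (t : ↥(chevE6.group (KK r))) a₀ ∈ R := by
    intro t
    rw [Multiset.mem_toFinset, Polynomial.mem_nthRoots hN0]
    exact hroot _ t.2.1 t.2.2 a₀
  let φ : ↥(TT chevE6 (KK r) ⊓ fixedSubgroup f.α) → ↥R := fun t => ⟨_, hmem t⟩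
  have hinj : Function.Injective φ := by
    intro s t hst
    have h1 : cX hp (s : ↥(chevE6.group (KK r))) a₀ = cX hp (t : ↥(chevE6.group (KK r))) a₀ := congrArg Subtype.val hst
    have hst' : (s * t⁻¹ : ↥(TT chevE6 (KK r) ⊓ fixedSubgroup f.α)) = 1 := by
      have h2 : ((s * t⁻¹ : ↥(TT chevE6 (KK r) ⊓ fixedSubgroup f.α)) : ↥(chevE6.group (KK r))) ∈ TT chevE6 (KK r) :=
        (s * t⁻¹).2.1
      apply Subtype.ext
      refine eq_one_of_ker h2 (hgen _ (fun x hx => ker_theta f h2 (s * t⁻¹).2.2 hx) ?_)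
      rw [mem_ker]
      have h3 := cX_mul hp (s * t⁻¹).2.1 t.2.1 a₀
      have h4 : ((s * t⁻¹ : ↥(TT chevE6 (KK r) ⊓ fixedSubgroup f.α)) : ↥(chevE6.group (KK r))) *
          (t : ↥(chevE6.group (KK r))) = s := by
        rw [Subgroup.coe_mul, Subgroup.coe_inv, inv_mul_cancel_right]
      rw [h4, h1] at h3
      exact mul_right_cancel₀ ((isMC_cX hp t.2.1).ne_zero a₀) (h3.symm.trans (one_mul _).symm)
    rwa [mul_inv_eq_one] at hst'
  refine ⟨Finite.of_injective φ hinj, (Nat.card_le_card_of_injective φ hinj).trans ?_⟩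
  rw [Nat.card_eq_fintype_card, Fintype.card_coe]
  exact ((Multiset.toFinset_card_le _).trans (Polynomial.card_nthRoots N 1)).trans hN

end Cfsg.Agent.H808.R2
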